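import Cfsg.Agent.Lib.Helper47.UG.Defs
import Cfsg.Agent.Lib.Helper77.ASU8.Main8
import Cfsg.Agent.Lib.Helper77.ASU8.C6G

set_option autoImplicit false

namespace Cfsg.Agent.Lib.Helper47.UG

open Cfsg Cfsg.Geo
open Cfsg.Agent.Lib.Helper77.Asch (NormBy MinOver sc)
open Cfsg.Agent.Lib.Helper77.AschG (tw slot)
open Cfsg.Agent.Lib.Helper77.ASU8 (InC6U)
open Cfsg.Agent.Lib.Helper47.UC (InGeoV)
open scoped MatrixGroups Matrix Kronecker

variable {n : ℕ} {F : Type*} [Field F]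

theorem tgt_of_C6U [Fintype F] (q : ℕ) (hF : Fintype.card F = q ^ 2) (h2pow : ∃ j, n = 2 ^ j)
    (Γ : Subgroup (GL (Fin n) F)) (h : InC6U q Γ) : Tgt q Γ := by
  obtain ⟨j, hj⟩ := h2pow
  obtain ⟨p, R, h1, h2, h3', h4, h5, h6, h7, h8, _, h10⟩ := h
  subst h2
  refine ⟨subgroupNormalizer R ⊓ GU n F q,
      Or.inl (Or.inr (Or.inr (Or.inr (Or.inr (Or.inr (Or.inr (Or.inr
        ⟨2, R, q, 2, j, h4, h5, h6, ?_, ?_, Or.inr ⟨rfl, rfl, h8, ?_⟩, rfl⟩))))))), inf_le_inf_right _ h10⟩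
  · rintro rfl
    omega
  · rw [h8]
    exact Cfsg.Agent.Lib.Helper77.ASU8.minimalField_four q h1 hF h3'
  · rw [h7, hj]
    ring

end Cfsg.Agent.Lib.Helper47.UG
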