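import Cfsg.Agent.Lib.Helper47.UG.Defs
import Cfsg.Agent.Lib.Helper77.ASU8.Main8
import Cfsg.Agent.Lib.Helper77.ASU8.C6G

set_option autoImplicit false

namespace Cfsg.Agent.Lib.Helper47.UG

open Cfsg Cfsg.Geo
open Cfsg.Agent.Lib.Helper77.Asch (NormBy MinOver sc)
open Cfsg.Agent.Lib.Helper77.AschG (tw slot)
open Cfsg.Agent.Lib.Helper77.ASU8 (InC6U)
open Cfsg.Agent.Lib.Helper47.UC (InGeoV)
open scoped MatrixGroups Matrix Kronecker

variable {n : ℕ} {F : Type*} [Field F]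

/-- the complete class-6 block (any `n ≥ 3`). -/
theorem c6o_all [Fintype F] (q : ℕ) (hF : Fintype.card F = q ^ 2) (h3 : 3 ≤ n)
    (Hh N : Subgroup (GL (Fin n) F)) (hsim : Hh ≤ similarityGroup (hermForm n F q))
    (hm : MinOver Hh (scalars (Fin n) F) N) (hab : ⁅N, N⁆ ≤ scalars (Fin n) F)
    (hN : ActsAbsolutelyIrreducibly (matrixSet N)) : InGeoV q Hh ∨ Tgt q Hh := by
  rcases Cfsg.Agent.Lib.Helper77.ASU8.caseAUG q hF h3 Hh N hsim hm hab hN with h |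
    ⟨r, R, p, e, k, h1, h2, h3', h4, h5, h6, h7⟩
  · exact Or.inl h
  · exact Or.inr ⟨subgroupNormalizer R ⊓ GU n F q,
      Or.inl (Or.inr (Or.inr (Or.inr (Or.inr (Or.inr (Or.inr (Or.inr
        ⟨r, R, p, e, k, h1, h2, h3', h4, h5, h6, rfl⟩))))))), inf_le_inf_right _ h7⟩

theorem caseAU_odd [Fintype F] (q : ℕ) (hF : Fintype.card F = q ^ 2) (h3 : 3 ≤ n) (hodd : ¬ ∃ j, n = 2 ^ j)
    (Hh N : Subgroup (GL (Fin n) F)) (hsim : Hh ≤ similarityGroup (hermForm n F q))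
    (hm : MinOver Hh (scalars (Fin n) F) N) (hab : ⁅N, N⁆ ≤ scalars (Fin n) F)
    (hN : ActsAbsolutelyIrreducibly (matrixSet N)) : InGeoV q Hh ∨ Tgt q Hh :=
  c6o_all q hF h3 Hh N hsim hm hab hN

end Cfsg.Agent.Lib.Helper47.UG
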