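import Cfsg.Agent.Lib.Helper47.UG.Defs
import Cfsg.Agent.Lib.Helper59.ASU9.QSOL
import Cfsg.Agent.Lib.Helper59.ASU9.ONB
import Cfsg.Agent.Lib.Helper59.ASU9.T2WF

set_option autoImplicit false

namespace Cfsg.Agent.Lib.Helper47.UG

open Cfsg Cfsg.Geo
open Cfsg.Agent.Lib.Helper77.Asch (NormBy MinOver sc)
open Cfsg.Agent.Lib.Helper77.AschG (tw slot slot_apply slot_mul slot_one slot_injective)
open Cfsg.Agent.Lib.Helper47.UC (InGeoV)
open Cfsg.Agent.Lib.Helper59.ASU9 (qsol_tw_mul qsol_tw_one qsol_tw_injective qsol_tw_mulVec t2wf_gram exists_onb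
  solvable_sim32)
open scoped MatrixGroups Matrix Kronecker

variable {n : ℕ} {F : Type*} [Field F]

/-- the vector `u` in slot `i`, supported on the slice where all other indices equal `c`. -/
def qsgEmb {k : ℕ} (i : Fin k) (c : Fin 3) (u : Fin 3 → F) : (Fin k → Fin 3) → F :=
  fun a => if ∀ j, j ≠ i → a j = c then u (a i) else 0

theorem qsg_sum {k : ℕ} (i : Fin k) (c : Fin 3) (f : (Fin k → Fin 3) → F)
    (hf : ∀ b, (¬ ∀ j, j ≠ i → b j = c) → f b = 0) :
    ∑ b, f b = ∑ t : Fin 3, f (Function.update (fun _ => c) i t) := by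
  symm
  refine Finset.sum_of_injOn (fun t => Function.update (fun _ => c) i t) ?_ ?_ ?_ ?_
  · intro s _ t _ hst
    have := congrFun hst i
    simpa using this
  · intro _ _; exact Finset.mem_coe.2 (Finset.mem_univ _)
  · intro b _ hb
    apply hf
    intro h
    apply hb
    refine ⟨b i, by simp, ?_⟩
    funext j
    by_cases hj : j = i
    · subst hj; simp
    · simp [Function.update_of_ne hj, h j hj]
  · intro _ _; rfl

theorem qsg_emb_update {k : ℕ} (i : Fin k) (c : Fin 3) (u : Fin 3 → F) (t : Fin 3) :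
    qsgEmb i c u (Function.update (fun _ => c) i t) = u t := by
  unfold qsgEmb
  rw [if_pos (fun j hj => by rw [Function.update_of_ne hj]), Function.update_self]

theorem qsg_slot_emb {k : ℕ} (i : Fin k) (c : Fin 3) (X : Matrix (Fin 3) (Fin 3) F) (u : Fin 3 → F) :
    slot i X *ᵥ qsgEmb i c u = qsgEmb i c (X *ᵥ u) := by
  funext a
  rw [Matrix.mulVec, dotProduct]
  rw [qsg_sum i c]
  · simp only [qsg_emb_update, slot_apply, Function.update_self]
    unfold qsgEmb
    by_cases h : ∀ j, j ≠ i → a j = c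
    · rw [if_pos h]
      rw [Matrix.mulVec, dotProduct]
      refine Finset.sum_congr rfl fun t _ => ?_
      rw [if_pos (fun j hj => by rw [Function.update_of_ne hj, h j hj])]
    · rw [if_neg h]
      refine Finset.sum_eq_zero fun t _ => ?_
      rw [if_neg (fun h' => h (fun j hj => by rw [h' j hj, Function.update_of_ne hj])), zero_mul]
  · intro b hb
    unfold qsgEmb
    rw [if_neg hb, mul_zero]

theorem qsg_T {k : ℕ} (G : Matrix (Fin 3) (Fin 3) F) (i : Fin k) (c d : Fin 3) (u v : Fin 3 → F) :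
    ∑ a, ∑ b, qsgEmb i c u a * (∏ j, G (a j) (b j)) * (qsgEmb i d v b) ^ 2
      = (∏ _j ∈ Finset.univ.erase i, G c d) * ∑ s, ∑ t, u s * G s t * (v t) ^ 2 := by
  rw [qsg_sum i c]
  · rw [Finset.mul_sum]
    refine Finset.sum_congr rfl fun s _ => ?_
    rw [qsg_sum i d]
    · rw [Finset.mul_sum]
      refine Finset.sum_congr rfl fun t _ => ?_
      rw [qsg_emb_update, qsg_emb_update, ← Finset.mul_prod_erase Finset.univ _ (Finset.mem_univ i),
        Function.update_self, Function.update_self]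
      have h3 : ∏ j ∈ Finset.univ.erase i,
          G (Function.update (fun _ => c) i s j) (Function.update (fun _ => d) i t j)
          = ∏ _j ∈ Finset.univ.erase i, G c d :=
        Finset.prod_congr rfl fun j hj => by
          rw [Function.update_of_ne (Finset.ne_of_mem_erase hj), Function.update_of_ne (Finset.ne_of_mem_erase hj)]
      rw [h3]; ring
    · intro b hb
      unfold qsgEmb
      rw [if_neg hb]; simp
  · intro a ha
    refine Finset.sum_eq_zero fun b _ => ?_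
    unfold qsgEmb
    rw [if_neg ha]; simp

/-- QSG. -/
theorem solvable_of_slot_gen [Fintype F] (hF : Fintype.card F = 2 ^ 2) {k : ℕ} (e' : Fin n ≃ (Fin k → Fin 3))
    (P' : GL (Fin n) F) (f₁ : (Fin 3 → F) → (Fin 3 → F) → F) (hf : IsUnitaryFormPow 2 f₁)
    (hT : IsTensorPowerFormStructure (fun x : F => x ^ 2) (hermForm n F 2) f₁ e' P') (i : Fin k)
    (Q : Subgroup (GL (Fin n) F)) (hQs : Q ≤ similarityGroup (hermForm n F 2))
    (hQ : ∀ g ∈ Q, ∃ x : Matrix (Fin 3) (Fin 3) F, (g : Matrix (Fin n) (Fin n) F) = tw e' P' (slot i x)) :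
    Group.IsSolvable Q := by
  classical
  choose! X hX using hQ
  have hinj : ∀ x y : Matrix (Fin 3) (Fin 3) F, tw e' P' (slot i x) = tw e' P' (slot i y) → x = y :=
    fun x y h => slot_injective i (qsol_tw_injective e' P' h)
  let ψ₀ : Q →* Matrix (Fin 3) (Fin 3) F :=
    { toFun := fun g => X g.1
      map_one' := by
        apply hinj
        rw [← hX _ (1 : Q).2, slot_one, qsol_tw_one]
        rfl
      map_mul' := fun g h => by
        apply hinj
        rw [← slot_mul, ← qsol_tw_mul, ← hX _ g.2, ← hX _ h.2, ← hX _ (g * h).2]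
        rfl }
  let ψ : Q →* GL (Fin 3) F := ψ₀.toHomUnits
  have hψ : ∀ g : Q, ((ψ g : GL (Fin 3) F) : Matrix (Fin 3) (Fin 3) F) = X g.1 := fun g => rfl
  obtain ⟨C, hC⟩ := exists_onb 2 hF f₁ hf
  have hfg : ∀ u v : Fin 3 → F, ∑ s, ∑ t, u s * gramMatrix f₁ s t * (v t) ^ 2 = f₁ u v :=
    fun u v => t2wf_gram 2 hF f₁ hf u v
  have hG : ∃ c d, gramMatrix f₁ c d ≠ 0 := by
    by_contra hcon
    push Not at hcon
    obtain ⟨x, hx⟩ := (hf.nondegenerate (Pi.single 0 1) (by
      intro h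
      have := congrFun h 0
      simp at this)).1
    apply hx
    rw [← hfg]
    simp [hcon]
  obtain ⟨c₁, d₁, hcd⟩ := hG
  have hsim : ∀ g : Q, ∃ l : Fˣ, ∀ u v, f₁ (X g.1 *ᵥ u) (X g.1 *ᵥ v) = (l : F) * f₁ u v := by
    intro g
    obtain ⟨l, hl⟩ := hQs g.2
    obtain ⟨c, hc0, hc⟩ := hT
    have hc' : ∀ x y : (Fin k → Fin 3) → F,
        hermForm n F 2 ((P' : Matrix (Fin n) (Fin n) F) *ᵥ (x ∘ e')) ((P' : Matrix (Fin n) (Fin n) F) *ᵥ (y ∘ e')) =
          c * ∑ a, ∑ b, x a * (∏ j, gramMatrix f₁ (a j) (b j)) * (y b) ^ 2 := hc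
    refine ⟨l, fun u v => ?_⟩
    have h1 := hl ((P' : Matrix (Fin n) (Fin n) F) *ᵥ (qsgEmb i c₁ u ∘ e'))
      ((P' : Matrix (Fin n) (Fin n) F) *ᵥ (qsgEmb i d₁ v ∘ e'))
    rw [hX _ g.2, qsol_tw_mulVec, qsol_tw_mulVec, qsg_slot_emb, qsg_slot_emb, hc', hc', qsg_T, qsg_T,
      hfg, hfg] at h1
    have hκ : (∏ _j ∈ Finset.univ.erase i, gramMatrix f₁ c₁ d₁) ≠ 0 :=
      Finset.prod_ne_zero_iff.2 fun _ _ => hcd
    apply mul_left_cancel₀ (mul_ne_zero hc0 hκ)
    linear_combination h1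
  let φ : Q →* GL (Fin 3) F := (MulAut.conj C⁻¹).toMonoidHom.comp ψ
  have hφ : ∀ g : Q, φ g = C⁻¹ * ψ g * C := fun g => by simp [φ]
  have hmem : ∀ g : Q, φ g ∈ similarityGroup (hermForm 3 F 2) := by
    intro g
    obtain ⟨l, hl⟩ := hsim g
    refine ⟨l, fun u v => ?_⟩
    have h3 : ∀ u : Fin 3 → F, (C : Matrix (Fin 3) (Fin 3) F) *ᵥ
        (((C⁻¹ * ψ g * C : GL (Fin 3) F) : Matrix (Fin 3) (Fin 3) F) *ᵥ u)
        = X g.1 *ᵥ ((C : Matrix (Fin 3) (Fin 3) F) *ᵥ u) := by
      intro u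
      have h4 : C * (C⁻¹ * ψ g * C) = ψ g * C := by group
      rw [Matrix.mulVec_mulVec, Matrix.mulVec_mulVec, ← Units.val_mul, h4, Units.val_mul, hψ]
    rw [← hC, ← hC, hφ, h3, h3, hl]
  let φ' : Q →* similarityGroup (hermForm 3 F 2) := φ.codRestrict _ hmem
  have hinjφ : Function.Injective φ' := by
    intro g h hgh
    have h0 : φ g = φ h := congrArg Subtype.val hgh
    rw [hφ, hφ] at h0
    have h0' : ψ g = ψ h := by simpa [mul_assoc] using h0
    have h1 : X g.1 = X h.1 := by rw [← hψ, ← hψ, h0']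
    apply Subtype.ext
    apply Units.ext
    rw [hX _ g.2, hX _ h.2, h1]
  have := solvable_sim32 hF
  exact Group.isSolvable_of_isSolvable_injective hinjφ

end Cfsg.Agent.Lib.Helper47.UG
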