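import Cfsg.Agent.Lib.Helper47.UG.Defs
import Cfsg.Agent.Lib.Helper47.UG.QSG
import Cfsg.Agent.Lib.Helper54.UT.CB
import Cfsg.Agent.Lib.Helper59.ASU9.SOLV
import Cfsg.Agent.Lib.Helper32.AschU.Main

/-! Ladder UG (S5663): the C7 block, with `(q, a) = (2, 3)` excluded. -/

set_option autoImplicit false

namespace Cfsg.Agent.Lib.Helper47.UG

open Cfsg Cfsg.Geo Cfsg.Agent.Lib.Helper77.Asch Cfsg.Agent.Lib.Helper77.AschG Cfsg.Agent.Lib.Helper5.AschC
  Cfsg.Agent.Lib.Helper54.UT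
open scoped MatrixGroups Matrix

variable {n : ℕ} {F : Type*} [Field F]

/-- the tensor-induced case inside the similarity group of the standard unitary form, `(q, a) ≠ (2, 3)`. -/
theorem caseB_ext [Fintype F] (q : ℕ) (hF : Fintype.card F = q ^ 2) (h3 : 3 ≤ n) (H N : Subgroup (GL (Fin n) F))
    (hHs : H ≤ similarityGroup (hermForm n F q))
    (hm : MinOver H (scalars (Fin n) F) N) (hnab : ¬ ⁅N, N⁆ ≤ scalars (Fin n) F)
    (hN : ActsAbsolutelyIrreducibly (matrixSet N))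
    (hns : ¬ ∀ M : Subgroup (GL (Fin n) F), scalars (Fin n) F ≤ M → M ≤ N → NormBy N M →
      M = scalars (Fin n) F ∨ M = N) :
    ∃ (a k : ℕ) (e : Fin n ≃ (Fin k → Fin a)) (P : GL (Fin n) F) (f₁ : (Fin a → F) → (Fin a → F) → F),
      2 ≤ a ∧ 2 ≤ k ∧ IsUnitaryFormPow q f₁ ∧
      IsTensorPowerFormStructure (fun x : F => x ^ q) (hermForm n F q) f₁ e P ∧
      H ≤ tensorWreathSubgroup a k e P ∧ ¬ (q = 2 ∧ a = 3) := by
  classical
  have hn : 0 < n := by omega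
  have hZc : ∀ z ∈ scalars (Fin n) F, ∀ g : GL (Fin n) F, g * z = z * g :=
    fun z hz g => Cfsg.Agent.Lib.Helper77.Asch.scalars_central z hz g
  obtain ⟨Q, k, g, hk, hgH, hQN, hQZ, hQnorm, hcomm, hgen, hfac, hperm⟩ :=
    exists_commuting_conj' H (scalars (Fin n) F) N hZc hm hnab hns
  have hA := spanAlg_norm N Q hQnorm
  obtain ⟨I, hI⟩ := exists_minIdl hn (spanAlg Q)
  obtain ⟨U, hU⟩ := ideal_faith hn N hN.1 _ hA I hI (idl_inv_of_fac Q N hfac I hI.idl)
  obtain ⟨a, φ, ha, hφ⟩ := dens _ U hU (cen_finrank_of_fac hn Q N hfac hN)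
  have hcomm' : ∀ i j, i ≠ j → ∀ x y, (conjA (g i)).comp φ x * (conjA (g j)).comp φ y
      = (conjA (g j)).comp φ y * (conjA (g i)).comp φ x :=
    fun i j hij => conj_comm Q (g i) (g j) (hcomm i j hij) φ hφ
  have hnk : n = a ^ k := pw hn ha (fun i => (conjA (g i)).comp φ) hcomm'
    (adjoin_conj_eq_top hn N Q g hN hgen φ hφ)
  obtain ⟨Ψ, hΨ⟩ := exists_tensor_hom (fun i => (conjA (g i)).comp φ) hcomm'
  obtain ⟨e, P, hP⟩ := tensor_basis_of_hom hnk Ψ
  have hslot : ∀ i x, tw e P (slot i x) = conjA (g i) (φ x) := by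
    intro i x
    rw [← hP, hΨ]
    rfl
  have hle : H ≤ tensorWreathSubgroup a k e P := by
    intro h hh
    obtain ⟨σ, hσ⟩ := hperm h hh
    refine mem_tensorWreath (by omega) e P h σ (fun i x => ?_)
    have h1 : conjA (h * g i) (φ x) ∈ (spanAlg Q).map (conjA (g (σ i))) := by
      rw [← spanAlg_conj, ← hσ i, spanAlg_conj]
      exact ⟨φ x, hφ ▸ ⟨x, rfl⟩, rfl⟩
    obtain ⟨z, hz, hz'⟩ := h1
    rw [← hφ] at hz
    obtain ⟨y, rfl⟩ := hz
    refine ⟨y, ?_⟩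
    rw [hslot, hslot]
    have h2 : conjA (g (σ i)) (φ y) = conjA (h * g i) (φ x) := hz'
    rw [h2, conjA_mul]
    rfl
  have ha1 : a ≠ 1 := by
    rintro rfl
    exact hQZ (le_scalars_of_range hn φ Q hφ)
  have ha0 : 0 < a := by
    rcases Nat.eq_zero_or_pos a with h0 | h0
    · subst h0
      rw [zero_pow (by omega)] at hnk
      omega
    · exact h0
  obtain ⟨τ, hτ⟩ := exists_tau q hF Q ((hQN.trans hm.le).trans hHs) φ hφ
  obtain ⟨f₁, hf₁, hT⟩ := tensor_power_form q hF (by omega : 0 < k) ha0 e P τ (by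
    intro i x u v
    rw [hslot, hslot]
    exact adj_conj q (g i) (hHs (hgH i)) _ _ (hτ x) u v)
  refine ⟨a, k, e, P, f₁, by omega, hk, hf₁, hT, hle, ?_⟩
  rintro ⟨rfl, rfl⟩
  have i0 : Fin k := ⟨0, by omega⟩
  set Q0 : Subgroup (GL (Fin n) F) := Q.map (MulAut.conj (g i0)).toMonoidHom with hQ0
  have hQ0s : Q0 ≤ similarityGroup (hermForm n F 2) := by
    rintro _ ⟨y, hy, rfl⟩
    have hy' := hHs (hm.le (hQN hy))
    have hg' := hHs (hgH i0)
    exact Subgroup.mul_mem _ (Subgroup.mul_mem _ hg' hy') (Subgroup.inv_mem _ hg')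
  have hB : ∀ y, y ∈ spanAlg Q0 ↔ ∃ x : Matrix (Fin 3) (Fin 3) F, y = tw e P (slot i0 x) := by
    intro y
    rw [hQ0, spanAlg_conj, ← hφ]
    constructor
    · rintro ⟨_, ⟨x, rfl⟩, rfl⟩
      exact ⟨x, (hslot i0 x).symm⟩
    · rintro ⟨x, rfl⟩
      exact ⟨φ x, ⟨x, rfl⟩, (hslot i0 x).symm⟩
  have hsolQ0 : Group.IsSolvable Q0 := by
    refine solvable_of_slot_gen hF e P f₁ hf₁ hT i0 Q0 hQ0s ?_
    intro y hy
    exact (hB _).1 (Algebra.subset_adjoin ⟨y, hy, rfl⟩ : (y : Matrix (Fin n) (Fin n) F) ∈ spanAlg Q0)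
  have hsolQ : Group.IsSolvable Q := by
    let ψ : Q →* Q0 := ((MulAut.conj (g i0)).toMonoidHom.subgroupMap Q)
    have hinj : Function.Injective ψ := by
      intro u v huv
      have := congrArg Subtype.val huv
      exact Subtype.ext ((MulAut.conj (g i0)).injective this)
    exact Group.isSolvable_of_isSolvable_injective hinj
  obtain ⟨hperf, hPZ⟩ := perfect_core H (scalars (Fin n) F) N hZc hm hnab
  have hcen := Cfsg.Agent.Lib.Helper59.ASU9.central_of_solvable N Q ⁅N, N⁆ hfac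
    (Subgroup.commutator_le_self N) hperf hsolQ
  apply hQZ
  intro y hy
  refine Cfsg.Agent.Lib.Helper32.AschU.mem_scalars_of_commutes hn N hN y ?_
  intro x hx
  rw [← hPZ] at hx
  haveI : (scalars (Fin n) F).Normal := inferInstance
  obtain ⟨u, hu, z, hz, rfl⟩ := Subgroup.mem_sup_of_normal_right.1 hx
  calc y * (u * z) = (y * u) * z := (mul_assoc _ _ _).symm
    _ = (u * y) * z := by rw [hcen u hu y hy]
    _ = u * (y * z) := mul_assoc _ _ _
    _ = u * (z * y) := by rw [hZc z hz y]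
    _ = u * z * y := (mul_assoc _ _ _).symm

end Cfsg.Agent.Lib.Helper47.UG
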