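import Cfsg.Agent.Lib.Helper47.UG.Defs
import Cfsg.Agent.Lib.Helper77.ASU8.Main8
import Cfsg.Agent.Lib.Helper47.UC.FSWAP
import Cfsg.Agent.Lib.Helper80.AS.SWAP
import Cfsg.Agent.Lib.Helper5.AschC.DIM
import Cfsg.Agent.Lib.Helper59.ASU9.NOALT

set_option autoImplicit false

namespace Cfsg.Agent.Lib.Helper47.UG

open Cfsg Cfsg.Geo
open Cfsg.Agent.Lib.Helper77.Asch (NormBy MinOver sc)
open Cfsg.Agent.Lib.Helper77.AschG (tw slot)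
open Cfsg.Agent.Lib.Helper77.ASU8 (InC6U)
open Cfsg.Agent.Lib.Helper47.UC (InGeoV)
open scoped MatrixGroups Matrix Kronecker

variable {n : ℕ} {F : Type*} [Field F]

theorem conv [Fintype F] (q : ℕ) (hF : Fintype.card F = q ^ 2) (Γ : Subgroup (GL (Fin n) F)) (h : InGeoV q Γ) :
    Tgt q Γ ∨ ∃ (s : ℕ) (e : Fin n ≃ Fin s × Fin s) (P : GL (Fin n) F) (f₁ f₂ : (Fin s → F) → (Fin s → F) → F),
      2 ≤ s ∧ IsUnitaryFormPow q f₁ ∧ IsUnitaryFormPow q f₂ ∧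
      IsTensorFormStructure (fun x : F => x ^ q) (hermForm n F q) f₁ f₂ e P ∧ Γ ≤ tensorProductSubgroup s s e P := by
  rcases h with ⟨W, h0, h1, h2⟩ | ⟨W, h0, h1, h2, h3⟩ | ⟨t, m, D, h1, h2⟩ | ⟨m, D, h1, h2, h3⟩ |
    ⟨r, A, h1, h2, h3, h4', h5⟩ | ⟨s, k, e, P, f₁, f₂, h1, h2, h3, h4', h5, h6⟩ | ⟨F₀, r, P, h1, h2, h3, h4', h5⟩ |
    ⟨F₀, P, ζ, h1, h2, h3, h4', h5, h6⟩ | ⟨h0, F₀, P, h1, h2, h3⟩
  · exact Or.inl ⟨_, Or.inl (Or.inl ⟨W, h0, h1, rfl⟩), inf_le_inf_right _ h2⟩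
  · exact Or.inl ⟨_, Or.inl (Or.inr (Or.inl ⟨W, h0, h1, h2, rfl⟩)), inf_le_inf_right _ h3⟩
  · exact Or.inl ⟨_, Or.inl (Or.inr (Or.inr (Or.inl ⟨t, m, D, h1, rfl⟩))), inf_le_inf_right _ h2⟩
  · have hdim := Cfsg.Agent.Lib.Helper5.AschC.decomp_dim D h1
    exact Or.inl ⟨_, Or.inl (Or.inr (Or.inr (Or.inr (Or.inl ⟨m, D, hdim, h1, h2, rfl⟩)))), inf_le_inf_right _ h3⟩
  · exact Or.inl ⟨_, Or.inr (Or.inl ⟨r, A, h1, h2, h3, h4', rfl⟩), inf_le_inf_right _ h5⟩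
  · rcases lt_trichotomy s k with hlt | heq | hgt
    · exact Or.inl ⟨_, Or.inr (Or.inr (Or.inl ⟨s, k, e, P, f₁, f₂, h1, hlt, h3, h4', h5, rfl⟩)),
        inf_le_inf_right _ h6⟩
    · subst heq
      exact Or.inr ⟨s, e, P, f₁, f₂, h1, h3, h4', h5, h6⟩
    · exact Or.inl ⟨_, Or.inr (Or.inr (Or.inl ⟨k, s, e.trans (Equiv.prodComm _ _), P, f₂, f₁, h2, hgt, h4', h3,
        Cfsg.Agent.Lib.Helper47.UC.form_swap _ _ f₁ f₂ e P h5, rfl⟩)),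
        inf_le_inf_right _ (h6.trans (Cfsg.Agent.Lib.Helper80.AS.tensor_swap e P).le)⟩
  · exact Or.inl ⟨_, Or.inl (Or.inr (Or.inr (Or.inr (Or.inr (Or.inl ⟨F₀, r, P, h1, h2, h3, h4', rfl⟩))))),
      inf_le_inf_right _ h5⟩
  · have hev : Even n := by
      rcases Nat.even_or_odd n with hev | hodd
      · exact hev
      · exact (Cfsg.Agent.Lib.Helper59.ASU9.no_alt_odd q hF hodd F₀ P ζ h2 h5).elim
    exact Or.inl ⟨_, Or.inl (Or.inr (Or.inr (Or.inr (Or.inr (Or.inr (Or.inr (Or.inl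
      ⟨F₀, P, ζ, hev, h1, h2, h3, h4', h5, rfl⟩))))))), inf_le_inf_right _ h6⟩
  · exact Or.inl ⟨_, Or.inl (Or.inr (Or.inr (Or.inr (Or.inr (Or.inr (Or.inl ⟨F₀, P, h0, h1, h2, rfl⟩)))))),
      inf_le_inf_right _ h3⟩

end Cfsg.Agent.Lib.Helper47.UG
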