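import Cfsg.Agent.Lib.Helper47.UC.Defs
import Cfsg.Agent.Lib.Helper77.AschG.DefsB

/-! Ladder UG (S5663): Aschbacher's theorem for the unitary groups, general dimension: definitions. -/

set_option autoImplicit false

namespace Cfsg.Agent.Lib.Helper47.UG

open Cfsg Cfsg.Geo
open scoped MatrixGroups Matrix Kronecker

variable {n : ℕ} {F : Type*} [Field F]

/-- the isometries in `Γ` lie in a member of one of the official unitary geometric classes. -/
def Tgt [Fintype F] (q : ℕ) (Γ : Subgroup (GL (Fin n) F)) : Prop :=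
  ∃ M : Subgroup (GL (Fin n) F), InUnitaryClass n F q M ∧ Γ ⊓ GU n F q ≤ M

/-- from the index set `Fin s × Fin s` of a tensor product to the index set `Fin 2 → Fin s` of a tensor power. -/
abbrev eWs {s : ℕ} (e : Fin n ≃ Fin s × Fin s) : Fin n ≃ (Fin 2 → Fin s) :=
  e.trans (finTwoArrowEquiv (Fin s)).symm

end Cfsg.Agent.Lib.Helper47.UG
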