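import Cfsg.Agent.Lib.Helper47.UG.Defs
import Cfsg.Agent.Lib.Helper77.ASU8.Main8
import Cfsg.Agent.Lib.Helper77.ASU8.C6G

set_option autoImplicit false

namespace Cfsg.Agent.Lib.Helper47.UG

open Cfsg Cfsg.Geo
open Cfsg.Agent.Lib.Helper77.Asch (NormBy MinOver sc)
open Cfsg.Agent.Lib.Helper77.AschG (tw slot)
open Cfsg.Agent.Lib.Helper77.ASU8 (InC6U)
open Cfsg.Agent.Lib.Helper47.UC (InGeoV)
open scoped MatrixGroups Matrix Kronecker

variable {n : ℕ} {F : Type*} [Field F]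

theorem field_cases_U [Fintype F] (r : ℕ) (hr : r.Prime) (w : Fˣ) (hw : orderOf w = r) :
    (∃ F₀ : Subfield F, F₀ ≠ ⊤ ∧ (w : F) ∈ F₀) ∨ (∃ p e : ℕ, r ≠ p ∧ IsMinimalFieldFor r p e F) :=
  Cfsg.Agent.Lib.Helper77.ASU8.field_cases_min hr w hw

end Cfsg.Agent.Lib.Helper47.UG
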