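import Cfsg.Agent.Lib.Helper47.UG.Defs
import Cfsg.Agent.Lib.Helper47.UG.C6O
import Cfsg.Agent.Lib.Helper47.UC.MainB

set_option autoImplicit false

namespace Cfsg.Agent.Lib.Helper47.UG

open Cfsg Cfsg.Geo
open Cfsg.Agent.Lib.Helper77.Asch (NormBy MinOver sc)
open Cfsg.Agent.Lib.Helper47.UC (InGeoV)
open scoped MatrixGroups Matrix Kronecker

variable {n : ℕ} {F : Type*} [Field F]

/-- FLOW: the first half of the main flow for an irreducible group of similitudes containing the scalars. -/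
theorem flowA [Fintype F] (q : ℕ) (hF : Fintype.card F = q ^ 2) (h3 : 3 ≤ n) (Γ : Subgroup (GL (Fin n) F))
    (hs : Γ ≤ similarityGroup (hermForm n F q)) (hZ : scalars (Fin n) F ≤ Γ) (hirr : ActsIrreducibly (matrixSet Γ)) :
    InGeoV q Γ ∨ Tgt q Γ ∨ ∃ N : Subgroup (GL (Fin n) F), MinOver Γ (scalars (Fin n) F) N ∧
      ActsAbsolutelyIrreducibly (matrixSet N) ∧ ¬ ⁅N, N⁆ ≤ scalars (Fin n) F := by
  classical
  have hn : 0 < n := by omega
  have h2n : 2 ≤ n := by omega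
  have hZlt : scalars (Fin n) F < Γ := by
    refine lt_of_le_of_ne hZ (fun h => ?_)
    exact Cfsg.Agent.Lib.Helper77.Asch.not_irr_of_le_scalars h2n Γ (h ▸ le_refl _) hirr
  obtain ⟨N, hm⟩ := Cfsg.Agent.Lib.Helper77.Asch.exists_minOver Γ (scalars (Fin n) F) hZlt
  rcases Cfsg.Agent.Lib.Helper47.UC.normal_cases_U q hF hn Γ hs hirr N hm.le hm.norm with h | h | hNabs
  · exact Or.inl h
  · exact absurd h (not_le_of_gt hm.lt)
  by_cases hab : ⁅N, N⁆ ≤ scalars (Fin n) F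
  · rcases c6o_all q hF h3 Γ N hs hm hab hNabs with h | h
    · exact Or.inl h
    · exact Or.inr (Or.inl h)
  · exact Or.inr (Or.inr ⟨N, hm, hNabs, hab⟩)

end Cfsg.Agent.Lib.Helper47.UG
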