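import Cfsg.Agent.Lib.Helper47.UG.Defs
import Cfsg.Agent.Lib.Helper59.ASU9.ONB
import Cfsg.Agent.Lib.Helper17.UnitGen1
import Cfsg.Agent.Lib.Helper17.UnitHyp

set_option autoImplicit false

namespace Cfsg.Agent.Lib.Helper47.UG

open Cfsg Cfsg.Geo
open scoped MatrixGroups Matrix Kronecker

variable {n : ℕ} {F : Type*} [Field F]

/-- the explicit hyperbolic basis of the standard 2-dimensional unitary space. -/
theorem hyp_std [Fintype F] (q : ℕ) (hF : Fintype.card F = q ^ 2) :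
    ∃ (D : GL (Fin 2) F) (ζ : F), ζ ≠ 0 ∧ ζ + ζ ^ q = 0 ∧ ∀ x y : Fin 2 → F,
      hermForm 2 F q ((D : Matrix (Fin 2) (Fin 2) F) *ᵥ x) ((D : Matrix (Fin 2) (Fin 2) F) *ᵥ y)
        = ζ * (x 0 * y 1 ^ q - x 1 * y 0 ^ q) := by
  obtain ⟨ζ, hζ0, hζ⟩ := Cfsg.Agent.Lib.Helper17.exists_trace_zero hF
  obtain ⟨r, hr⟩ := Cfsg.Agent.Lib.Helper17.exists_trace_eq hF (1 : F) (one_pow q)
  obtain ⟨c, hc⟩ := Cfsg.Agent.Lib.Helper17.exists_norm_eq hF (-1 : F) (by simp)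
    (by rw [Cfsg.Agent.Lib.Helper17.neg_pow_q hF, one_pow])
  have hc0 : c ≠ 0 := by
    rintro rfl
    rw [zero_pow (by omega)] at hc
    exact one_ne_zero (by linear_combination hc : (1 : F) = 0)
  have hcc : c * c ^ q = -1 := by rw [← hc, pow_succ]; ring
  have hrq : (r ^ q) ^ q = r := Cfsg.Agent.Lib.Helper17.pow_q_pow_q hF r
  have hdet : (!![1, -(ζ * r ^ q); c, ζ * r * c] : Matrix (Fin 2) (Fin 2) F).det ≠ 0 := by
    rw [Matrix.det_fin_two_of]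
    have : (1 : F) * (ζ * r * c) - -(ζ * r ^ q) * c = ζ * c := by linear_combination ζ * c * hr
    rw [this]
    exact mul_ne_zero hζ0 hc0
  refine ⟨Matrix.GeneralLinearGroup.mkOfDetNeZero _ hdet, ζ, hζ0, by rw [hζ]; ring, ?_⟩
  intro x y
  have hD : ((Matrix.GeneralLinearGroup.mkOfDetNeZero _ hdet : GL (Fin 2) F) : Matrix (Fin 2) (Fin 2) F)
      = !![1, -(ζ * r ^ q); c, ζ * r * c] := rfl
  rw [hD]
  simp only [hermForm, Fin.sum_univ_two, Matrix.mulVec, dotProduct, Matrix.of_apply, Matrix.cons_val',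
    Matrix.cons_val_zero, Matrix.cons_val_one, Matrix.cons_val_fin_one,
    Cfsg.Agent.Lib.Helper17.add_pow_q hF, mul_pow, Cfsg.Agent.Lib.Helper17.neg_pow_q hF, hζ, hrq, one_pow]
  have hr' : r ^ q = 1 - r := by linear_combination hr
  rw [hr']
  linear_combination ((x 0 + ζ * r * x 1) * (y 0 ^ q - ζ * (1 - r) * y 1 ^ q)) * hcc

/-- HYP (hyperbolic basis of a 2-dimensional unitary space). -/
theorem exists_hyp [Fintype F] (q : ℕ) (hF : Fintype.card F = q ^ 2) (f₁ : (Fin 2 → F) → (Fin 2 → F) → F)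
    (hf : IsUnitaryFormPow q f₁) :
    ∃ (C : GL (Fin 2) F) (ζ : F), ζ ≠ 0 ∧ ζ + ζ ^ q = 0 ∧ ∀ x y : Fin 2 → F,
      f₁ ((C : Matrix (Fin 2) (Fin 2) F) *ᵥ x) ((C : Matrix (Fin 2) (Fin 2) F) *ᵥ y)
        = ζ * (x 0 * y 1 ^ q - x 1 * y 0 ^ q) := by
  obtain ⟨C₀, hC₀⟩ := Cfsg.Agent.Lib.Helper59.ASU9.exists_onb q hF f₁ hf
  obtain ⟨D, ζ, h0, h1, hD⟩ := hyp_std (F := F) q hF
  refine ⟨C₀ * D, ζ, h0, h1, ?_⟩
  intro x y
  rw [Matrix.GeneralLinearGroup.coe_mul, ← Matrix.mulVec_mulVec, ← Matrix.mulVec_mulVec, hC₀, hD]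

end Cfsg.Agent.Lib.Helper47.UG
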