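import Cfsg.Agent.Lib.Helper47.UG.CBX
import Cfsg.Agent.Lib.Helper77.ASU8.Main8
import Cfsg.Agent.Lib.Helper77.ASU8.C6G
import Cfsg.Agent.Lib.Helper77.ASU8.CONV

/-! Ladder UG (S5663): the main flow, general dimension `n ≥ 3`. -/

set_option autoImplicit false

namespace Cfsg.Agent.Lib.Helper47.UG

open Cfsg Cfsg.Geo
open Cfsg.Agent.Lib.Helper77.Asch (NormBy MinOver sc)
open Cfsg.Agent.Lib.Helper32.AschU (SUg IsTv gram)
open Cfsg.Agent.Lib.Helper47.UC (InGeoV)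
open Cfsg.Agent.Lib.Helper77.ASU8
open scoped MatrixGroups Matrix

variable {n : ℕ} {F : Type*} [Field F]

open Cfsg.Agent.Lib.Helper77.Asch Cfsg.Agent.Lib.Helper77.AschG Cfsg.Agent.Lib.Helper5.AschC
  Cfsg.Agent.Lib.Helper47.UC in
theorem mainG [Fintype F] (q : ℕ) (hF : Fintype.card F = q ^ 2) (h3 : 3 ≤ n)
    (H : Subgroup (GL (Fin n) F)) (hH : H ≤ GU n F q) :
    (∃ M : Subgroup (GL (Fin n) F), InUnitaryClass n F q M ∧ H ≤ M) ∨
    (∃ (s : ℕ) (e : Fin n ≃ Fin s × Fin s) (P : GL (Fin n) F) (f₁ f₂ : (Fin s → F) → (Fin s → F) → F), 2 ≤ s ∧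
      IsUnitaryFormPow q f₁ ∧ IsUnitaryFormPow q f₂ ∧
      IsTensorFormStructure (fun x : F => x ^ q) (hermForm n F q) f₁ f₂ e P ∧
      H ≤ tensorProductSubgroup s s e P) ∨
    InUnitaryResidualClass H := by
  classical
  have hn : 0 < n := by omega
  have h2n : 2 ≤ n := by omega
  have hgeo : InGeoV q H → (∃ M : Subgroup (GL (Fin n) F), InUnitaryClass n F q M ∧ H ≤ M) ∨
    (∃ (s : ℕ) (e : Fin n ≃ Fin s × Fin s) (P : GL (Fin n) F) (f₁ f₂ : (Fin s → F) → (Fin s → F) → F), 2 ≤ s ∧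
      IsUnitaryFormPow q f₁ ∧ IsUnitaryFormPow q f₂ ∧
      IsTensorFormStructure (fun x : F => x ^ q) (hermForm n F q) f₁ f₂ e P ∧
      H ≤ tensorProductSubgroup s s e P) ∨
    InUnitaryResidualClass H := by
    intro h
    rcases geoV_to_class q hF H hH h with h | h
    · exact Or.inl h
    · exact Or.inr (Or.inl h)
  by_cases hirr : ActsIrreducibly (matrixSet H)
  swap
  · exact hgeo (ured2 q hF H hH hirr)
  obtain ⟨Z, hZ⟩ : ∃ Z, Z = scalars (Fin n) F := ⟨_, rfl⟩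
  have hZc : ∀ z ∈ Z, ∀ g : GL (Fin n) F, g * z = z * g := by
    intro z hz g
    exact Cfsg.Agent.Lib.Helper77.Asch.scalars_central z (hZ ▸ hz) g
  obtain ⟨Hh, hHh⟩ : ∃ Hh, Hh = H ⊔ Z := ⟨_, rfl⟩
  have hHle : H ≤ Hh := hHh ▸ le_sup_left
  have hZle : Z ≤ Hh := hHh ▸ le_sup_right
  have hsim : Hh ≤ similarityGroup (hermForm n F q) := by
    rw [hHh]
    exact sup_le (hH.trans (Cfsg.Agent.Lib.Helper32.AschU.GU_le_sim q))
      (hZ ▸ Cfsg.Agent.Lib.Helper32.AschU.scalars_le_sim q)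
  have hirr' : ActsIrreducibly (matrixSet Hh) :=
    Cfsg.Agent.Lib.Helper77.Asch.irr_mono (matrixSet_mono hHle) hirr
  have hZlt : Z < Hh := by
    refine lt_of_le_of_ne hZle (fun h => ?_)
    exact Cfsg.Agent.Lib.Helper77.Asch.not_irr_of_le_scalars h2n H (hZ ▸ h ▸ hHle) hirr
  obtain ⟨N, hm⟩ := exists_minOver Hh Z hZlt
  rcases normal_cases_U q hF hn Hh hsim hirr' N hm.le hm.norm with h | h | hNabs
  · exact hgeo (h.mono hHle)
  · exact absurd (hZ ▸ h) (not_le_of_gt hm.lt)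
  by_cases hab : ⁅N, N⁆ ≤ Z
  · rcases caseAUG q hF h3 Hh N hsim (hZ ▸ hm) (hZ ▸ hab) hNabs with h | ⟨r, R, p, e, k, h1, h2, h3', h4, h5, h6, h7⟩
    · exact hgeo (h.mono hHle)
    · exact Or.inl ⟨subgroupNormalizer R ⊓ GU n F q,
        Or.inl (Or.inr (Or.inr (Or.inr (Or.inr (Or.inr (Or.inr (Or.inr
          ⟨r, R, p, e, k, h1, h2, h3', h4, h5, h6, rfl⟩))))))), le_inf (hHle.trans h7) hH⟩
  · obtain ⟨P, hP⟩ : ∃ P, P = ⁅N, N⁆ := ⟨_, rfl⟩
    obtain ⟨hperf, hPZ⟩ := perfect_core Hh Z N hZc hm hab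
    rw [← hP] at hperf hPZ hab
    have hPnorm : NormBy Hh P := hP ▸ normBy_commutator hm.norm
    have hPN : P ≤ N := hPZ ▸ le_sup_left
    have hPabs : ActsAbsolutelyIrreducibly (matrixSet P) := absIrr_of_sup P (by rw [← hZ, hPZ]; exact hNabs)
    have hnormH : Hh ≤ subgroupNormalizer P := le_normalizer_of_normBy hPnorm
    have hPH : P ≤ H := by
      calc P ≤ ⁅Hh, Hh⁆ := hP ▸ Subgroup.commutator_mono hm.le hm.le
        _ ≤ H := hHh ▸ commutator_sup_le H _ hZc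
    have hPU : P ≤ GU n F q := hPH.trans hH
    by_cases hsub : ∃ F₀ : Subfield F, F₀ ≠ ⊤ ∧ RealisableOver F₀ (matrixSet P)
    · obtain ⟨F₀, hF₀, B, hB⟩ := hsub
      exact hgeo ((geoV_of_realisable q hF h2n Hh P hPabs hPU hnormH F₀ hF₀ B hB).mono hHle)
    have hnoQ : ¬ ∃ Q : (Fin n → F) → F, IsNondegenerateQuadraticForm Q ∧ FixesQuadForm (matrixSet P) Q := by
      rintro ⟨Q, hQ, hfix⟩
      obtain ⟨M, hM⟩ := Cfsg.Agent.Lib.Helper32.AschU.desc1 q hF P hPU Q hQ hfix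
      exact hsub (Cfsg.Agent.Lib.Helper32.AschU.desc2 q hF hn P hPabs M hM)
    have hnoS : ¬ ∃ b : (Fin n → F) → (Fin n → F) → F, IsSymplecticForm b ∧ FixesForm (matrixSet P) b := by
      rintro ⟨b, hb, hfix⟩
      obtain ⟨M, hM⟩ := desc1s q hF P hPU b hb hfix
      exact hsub (Cfsg.Agent.Lib.Helper32.AschU.desc2 q hF hn P hPabs M hM)
    by_cases hsimple : ∀ M : Subgroup (GL (Fin n) F), Z ≤ M → M ≤ N → NormBy N M → M = Z ∨ M = N
    swap
    · left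
      subst hZ
      obtain ⟨a, k, e, P', f₁, ha, hk, hf₁, hT, hle, hqa⟩ :=
        caseB_ext q hF h3 Hh N hsim hm (hP ▸ hab) hNabs hsimple
      have ha3 : 3 ≤ a := by
        by_contra hcon
        obtain rfl : a = 2 := by omega
        have hPle : P ≤ tensorWreathSubgroup 2 k e P' := (hPN.trans hm.le).trans hle
        rcases Cfsg.Agent.Lib.Helper77.AschG.tensorWreath_two_form (by omega : 0 < k) e P' with
          ⟨_, Q', hQ', hle'⟩ | ⟨f, hf, hle'⟩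
        · exact hnoQ ⟨Q', hQ', fixesQuad_of_perfect P hperf Q' (hPle.trans hle')⟩
        · exact hnoS ⟨f, hf, fixes_of_perfect P hperf f (hPle.trans hle')⟩
      exact ⟨tensorWreathSubgroup a k e P' ⊓ GU n F q,
        Or.inr (Or.inr (Or.inr ⟨a, k, e, P', f₁, ha3, hk, hqa, hf₁, hT, rfl⟩)), le_inf (hHle.trans hle) hH⟩
    right; right
    subst hZ
    refine ⟨P, ⟨hPH, ?_, hperf, ?_, ?_, ?_, hPabs, ?_⟩, hnoQ, hnoS⟩
    · intro h hh x hx
      exact hPnorm h (hHle hh) x hx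
    · exact simple_quot _ N P hPZ hm.lt hsimple
    · exact nonabelian_quot _ P (by rw [hperf]; exact hab)
    · intro h _ hx
      exact mem_scalars_of_commute hn P hPabs h (centralizes_of_perfect _ P hZc hperf h hx)
    · intro F₀ hF₀ hr
      exact hsub ⟨F₀, hF₀, hr⟩

end Cfsg.Agent.Lib.Helper47.UG
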