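import Cfsg.Agent.Lib.Helper47.UG.Defs
import Cfsg.Agent.Lib.Helper59.ASU9.QSOL
import Cfsg.Agent.Lib.Helper59.ASU9.TWS

set_option autoImplicit false

namespace Cfsg.Agent.Lib.Helper47.UG

open Cfsg Cfsg.Geo
open Cfsg.Agent.Lib.Helper77.AschG (tw slot pt pt_mul pt_one pt_apply)
open Cfsg.Agent.Lib.Helper59.ASU9
open scoped MatrixGroups Matrix Kronecker commutatorElement

variable {n : ℕ} {F : Type*} [Field F]

/-- `(a, b) ↦ a ⊗ b`. -/
def solwPt : (Matrix (Fin 3) (Fin 3) F × Matrix (Fin 3) (Fin 3) F) →*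
    Matrix (Fin 2 → Fin 3) (Fin 2 → Fin 3) F where
  toFun p := pt ![p.1, p.2]
  map_one' := by
    rw [← pt_one]
    congr 1
    funext i
    fin_cases i <;> rfl
  map_mul' p p' := by
    rw [pt_mul]
    congr 1
    funext i
    fin_cases i <;> rfl

/-- `(a, b) ↦ a ⊗ b` on invertible matrices. -/
def solwPsi : GL (Fin 3) F × GL (Fin 3) F →* GL (Fin 2 → Fin 3) F :=
  (Units.map solwPt).comp MulEquiv.prodUnits.symm.toMonoidHom

theorem solw_psi_val (a b : GL (Fin 3) F) :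
    ((solwPsi (a, b) : GL (Fin 2 → Fin 3) F) : Matrix (Fin 2 → Fin 3) (Fin 2 → Fin 3) F) =
      pt ![(a : Matrix (Fin 3) (Fin 3) F), (b : Matrix (Fin 3) (Fin 3) F)] := rfl

theorem solw_single (z' : Fin 2 → Fin 3) :
    twsT (Pi.single (z' 0) (1 : F)) (Pi.single (z' 1) 1) = Pi.single z' 1 := by
  funext y
  unfold twsT
  by_cases hy : y = z'
  · subst hy
    simp
  · rw [Pi.single_eq_of_ne hy]
    by_cases h0 : y 0 = z' 0
    · have h1 : y 1 ≠ z' 1 := fun h1 => hy (by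
        funext i
        fin_cases i
        exacts [h0, h1])
      rw [Pi.single_eq_of_ne h1, mul_zero]
    · rw [Pi.single_eq_of_ne h0, zero_mul]

theorem solw_eq_psi (g : GL (Fin 2 → Fin 3) F) (a b : GL (Fin 3) F)
    (h : ∀ u w : Fin 3 → F, (g : Matrix (Fin 2 → Fin 3) (Fin 2 → Fin 3) F) *ᵥ twsT u w =
      twsT ((a : Matrix (Fin 3) (Fin 3) F) *ᵥ u) ((b : Matrix (Fin 3) (Fin 3) F) *ᵥ w)) :
    g = solwPsi (a, b) := by
  apply Units.ext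
  rw [solw_psi_val]
  ext z z'
  have h1 := congrFun (h (Pi.single (z' 0) 1) (Pi.single (z' 1) 1)) z
  rw [solw_single, Matrix.mulVec_single_one] at h1
  rw [pt_apply, Fin.prod_univ_two]
  simpa [twsT, Matrix.mulVec_single_one] using h1

theorem solw_T_pure (u w u' w' : Fin 3 → F) :
    ∑ z, twsT u w z * (twsT u' w' z) ^ 2 = hermForm 3 F 2 u u' * hermForm 3 F 2 w w' := by
  unfold hermForm twsT
  have h1 : ∑ z : Fin 2 → Fin 3, (u (z 0) * w (z 1)) * (u' (z 0) * w' (z 1)) ^ 2 =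
      ∑ p : Fin 3 × Fin 3, (u p.1 * w p.2) * (u' p.1 * w' p.2) ^ 2 :=
    Fintype.sum_equiv (finTwoArrowEquiv (Fin 3)) _ _ (fun z => rfl)
  rw [h1, Fintype.sum_prod_type, Finset.sum_mul_sum]
  refine Finset.sum_congr rfl fun i _ => Finset.sum_congr rfl fun j _ => ?_
  ring

theorem solw_factor (g : GL (Fin 2 → Fin 3) F) (a b : GL (Fin 3) F)
    (h : ∀ u w : Fin 3 → F, (g : Matrix (Fin 2 → Fin 3) (Fin 2 → Fin 3) F) *ᵥ twsT u w =
      twsT ((a : Matrix (Fin 3) (Fin 3) F) *ᵥ u) ((b : Matrix (Fin 3) (Fin 3) F) *ᵥ w)) (l : Fˣ)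
    (hl : ∀ x y : (Fin 2 → Fin 3) → F,
      ∑ z, ((g : Matrix (Fin 2 → Fin 3) (Fin 2 → Fin 3) F) *ᵥ x) z *
        (((g : Matrix (Fin 2 → Fin 3) (Fin 2 → Fin 3) F) *ᵥ y) z) ^ 2 = (l : F) * ∑ z, x z * (y z) ^ 2) :
    a ∈ similarityGroup (hermForm 3 F 2) ∧ b ∈ similarityGroup (hermForm 3 F 2) := by
  have key : ∀ u u' w w' : Fin 3 → F,
      hermForm 3 F 2 ((a : Matrix (Fin 3) (Fin 3) F) *ᵥ u) ((a : Matrix (Fin 3) (Fin 3) F) *ᵥ u') *
        hermForm 3 F 2 ((b : Matrix (Fin 3) (Fin 3) F) *ᵥ w) ((b : Matrix (Fin 3) (Fin 3) F) *ᵥ w') =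
      (l : F) * (hermForm 3 F 2 u u' * hermForm 3 F 2 w w') := by
    intro u u' w w'
    have h1 := hl (twsT u w) (twsT u' w')
    rw [h, h, solw_T_pure, solw_T_pure] at h1
    exact h1
  obtain ⟨e0, he0⟩ : ∃ e0 : Fin 3 → F, hermForm 3 F 2 e0 e0 = 1 :=
    ⟨Pi.single 0 1, by simp [hermForm, Fin.sum_univ_three]⟩
  have h00 := key e0 e0 e0 e0
  rw [he0, mul_one, mul_one] at h00
  have hα : hermForm 3 F 2 ((a : Matrix (Fin 3) (Fin 3) F) *ᵥ e0)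
      ((a : Matrix (Fin 3) (Fin 3) F) *ᵥ e0) ≠ 0 := by
    intro h0
    rw [h0, zero_mul] at h00
    exact l.ne_zero h00.symm
  have hβ : hermForm 3 F 2 ((b : Matrix (Fin 3) (Fin 3) F) *ᵥ e0)
      ((b : Matrix (Fin 3) (Fin 3) F) *ᵥ e0) ≠ 0 := by
    intro h0
    rw [h0, mul_zero] at h00
    exact l.ne_zero h00.symm
  constructor
  · refine ⟨l * (Units.mk0 _ hβ)⁻¹, fun u v => ?_⟩
    have h1 := key u v e0 e0
    rw [he0, mul_one] at h1
    rw [Units.val_mul, Units.val_inv_eq_inv_val, Units.val_mk0]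
    generalize hermForm 3 F 2 ((b : Matrix (Fin 3) (Fin 3) F) *ᵥ e0)
      ((b : Matrix (Fin 3) (Fin 3) F) *ᵥ e0) = β at h1 hβ
    calc _ = hermForm 3 F 2 ((a : Matrix (Fin 3) (Fin 3) F) *ᵥ u)
          ((a : Matrix (Fin 3) (Fin 3) F) *ᵥ v) * β * β⁻¹ := by
          rw [mul_assoc, mul_inv_cancel₀ hβ, mul_one]
      _ = _ := by rw [h1]; ring
  · refine ⟨l * (Units.mk0 _ hα)⁻¹, fun u v => ?_⟩
    have h1 := key e0 e0 u v
    rw [he0, one_mul] at h1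
    rw [Units.val_mul, Units.val_inv_eq_inv_val, Units.val_mk0]
    generalize hermForm 3 F 2 ((a : Matrix (Fin 3) (Fin 3) F) *ᵥ e0)
      ((a : Matrix (Fin 3) (Fin 3) F) *ᵥ e0) = α at h1 hα
    calc _ = α⁻¹ * (α * hermForm 3 F 2 ((b : Matrix (Fin 3) (Fin 3) F) *ᵥ u)
          ((b : Matrix (Fin 3) (Fin 3) F) *ᵥ v)) := by
          rw [← mul_assoc, inv_mul_cancel₀ hα, one_mul]
      _ = _ := by rw [h1]; ring

theorem solw_AA {g h : GL (Fin 2 → Fin 3) F} (hg : TwsA g) (hh : TwsA h) : TwsA (g * h) := by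
  obtain ⟨a, b, hab⟩ := hg
  obtain ⟨c, d, hcd⟩ := hh
  refine ⟨a * c, b * d, fun u w => ?_⟩
  rw [tws_mul_mulVec, hcd, hab, tws_mul_mulVec, tws_mul_mulVec]

theorem solw_AB {g h : GL (Fin 2 → Fin 3) F} (hg : TwsA g) (hh : TwsB h) : TwsB (g * h) := by
  obtain ⟨a, b, hab⟩ := hg
  obtain ⟨c, d, hcd⟩ := hh
  refine ⟨a * c, b * d, fun u w => ?_⟩
  rw [tws_mul_mulVec, hcd, hab, tws_mul_mulVec, tws_mul_mulVec]

theorem solw_BA {g h : GL (Fin 2 → Fin 3) F} (hg : TwsB g) (hh : TwsA h) : TwsB (g * h) := by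
  obtain ⟨a, b, hab⟩ := hg
  obtain ⟨c, d, hcd⟩ := hh
  refine ⟨a * d, b * c, fun u w => ?_⟩
  rw [tws_mul_mulVec, hcd, hab, tws_mul_mulVec, tws_mul_mulVec]

theorem solw_BB {g h : GL (Fin 2 → Fin 3) F} (hg : TwsB g) (hh : TwsB h) : TwsA (g * h) := by
  obtain ⟨a, b, hab⟩ := hg
  obtain ⟨c, d, hcd⟩ := hh
  refine ⟨a * d, b * c, fun u w => ?_⟩
  rw [tws_mul_mulVec, hcd, hab, tws_mul_mulVec, tws_mul_mulVec]

theorem solw_Ai {g : GL (Fin 2 → Fin 3) F} (hg : TwsA g) : TwsA g⁻¹ := by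
  obtain ⟨a, b, hab⟩ := hg
  refine ⟨a⁻¹, b⁻¹, fun u w => ?_⟩
  apply Cfsg.Agent.Lib.Helper59.Asch9.pr8_inv_mulVec
  rw [hab, tws_mul_inv_mulVec, tws_mul_inv_mulVec]

theorem solw_Bi {g : GL (Fin 2 → Fin 3) F} (hg : TwsB g) : TwsB g⁻¹ := by
  obtain ⟨a, b, hab⟩ := hg
  refine ⟨b⁻¹, a⁻¹, fun u w => ?_⟩
  apply Cfsg.Agent.Lib.Helper59.Asch9.pr8_inv_mulVec
  rw [hab, tws_mul_inv_mulVec, tws_mul_inv_mulVec]

theorem solw_comm {x y : GL (Fin 2 → Fin 3) F} (hx : TwsA x ∨ TwsB x) (hy : TwsA y ∨ TwsB y) :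
    TwsA ⁅x, y⁆ := by
  rw [commutatorElement_def]
  rcases hx with hx | hx <;> rcases hy with hy | hy
  · exact solw_AA (solw_AA (solw_AA hx hy) (solw_Ai hx)) (solw_Ai hy)
  · exact solw_BB (solw_BA (solw_AB hx hy) (solw_Ai hx)) (solw_Bi hy)
  · exact solw_AA (solw_BB (solw_BA hx hy) (solw_Bi hx)) (solw_Ai hy)
  · exact solw_BB (solw_AB (solw_BB hx hy) (solw_Bi hx)) (solw_Bi hy)

/-- a subgroup whose commutators lie in a solvable subgroup is solvable. -/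
theorem solw_solvable_of_comm {G : Type*} [Group G] (W R : Subgroup G) (hR : Group.IsSolvable R)
    (hcomm : ∀ x ∈ W, ∀ y ∈ W, ⁅x, y⁆ ∈ R) : Group.IsSolvable W := by
  have h1 : Group.IsSolvable (R.subgroupOf W) := by
    refine Group.isSolvable_of_isSolvable_injective (f := W.subtype.subgroupComap R) ?_
    intro a b hab
    apply Subtype.ext
    apply Subtype.ext
    exact congrArg (fun r : R => (r : G)) hab
  refine Group.isSolvable_of_ker_le_range (R.subgroupOf W).subtype (Abelianization.of (G := W)) ?_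
  rw [Abelianization.ker_of, Subgroup.range_subtype, commutator_def, Subgroup.commutator_le]
  intro g₁ _ g₂ _
  rw [Subgroup.mem_subgroupOf]
  exact hcomm g₁ g₁.2 g₂ g₂.2

/-- SOLW. -/
theorem solvable_wreath32 [Fintype F] (hF : Fintype.card F = 2 ^ 2) (e' : Fin n ≃ (Fin 2 → Fin 3)) (P' : GL (Fin n) F)
    (hT : IsTensorPowerFormStructure (fun x : F => x ^ 2) (hermForm n F 2) (hermForm 3 F 2) e' P') :
    Group.IsSolvable (tensorWreathSubgroup 3 2 e' P' ⊓ similarityGroup (hermForm n F 2) : Subgroup (GL (Fin n) F)) := by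
  classical
  obtain ⟨c, hc0, hc⟩ := hT
  have hc' : ∀ x y : (Fin 2 → Fin 3) → F,
      hermForm n F 2 ((P' : Matrix (Fin n) (Fin n) F) *ᵥ (x ∘ e')) ((P' : Matrix (Fin n) (Fin n) F) *ᵥ (y ∘ e')) =
        c * ∑ a, x a * (y a) ^ 2 := by
    intro x y
    rw [← qsol_T]
    exact hc x y
  have hS : Group.IsSolvable (similarityGroup (hermForm 3 F 2)) := solvable_sim32 hF
  obtain ⟨S, hSdef⟩ : ∃ S : Subgroup (GL (Fin 3) F), S = similarityGroup (hermForm 3 F 2) := ⟨_, rfl⟩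
  rw [← hSdef] at hS
  let Θ : GL (Fin 2 → Fin 3) F →* GL (Fin n) F :=
    (MulAut.conj P').toMonoidHom.comp (glReindex e'.symm).toMonoidHom
  have hΘ : ∀ g0 : GL (Fin 2 → Fin 3) F, ((Θ g0 : GL (Fin n) F) : Matrix (Fin n) (Fin n) F) =
      tw e' P' (g0 : Matrix (Fin 2 → Fin 3) (Fin 2 → Fin 3) F) := fun g0 => rfl
  have hR : Group.IsSolvable ((S.prod S).map (Θ.comp solwPsi)) := by
    have h1 : Group.IsSolvable (S.prod S) :=
      Group.isSolvable_of_isSolvable_injective (f := (Subgroup.prodEquiv S S).toMonoidHom)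
        (Subgroup.prodEquiv S S).injective
    exact Group.isSolvable_of_surjective (f := (Θ.comp solwPsi).subgroupMap (S.prod S))
      (MonoidHom.subgroupMap_surjective _ _)
  refine solw_solvable_of_comm _ _ hR ?_
  intro x hx y hy
  obtain ⟨x1, ⟨x0, hx0, rfl⟩, hx1⟩ := hx.1
  obtain ⟨y1, ⟨y0, hy0, rfl⟩, hy1⟩ := hy.1
  have hxΘ : x = Θ x0 := hx1.symm
  have hyΘ : y = Θ y0 := hy1.symm
  obtain ⟨a, b, hab⟩ := solw_comm (tws_aux x0 hx0) (tws_aux y0 hy0)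
  have hsim : ⁅x, y⁆ ∈ similarityGroup (hermForm n F 2) := by
    rw [commutatorElement_def]
    exact mul_mem (mul_mem (mul_mem hx.2 hy.2) (inv_mem hx.2)) (inv_mem hy.2)
  obtain ⟨l, hl⟩ := hsim
  have hΘc : ⁅x, y⁆ = Θ ⁅x0, y0⁆ := by rw [hxΘ, hyΘ, map_commutatorElement]
  have hl' : ∀ X Y : (Fin 2 → Fin 3) → F,
      ∑ z, (((⁅x0, y0⁆ : GL (Fin 2 → Fin 3) F) : Matrix (Fin 2 → Fin 3) (Fin 2 → Fin 3) F) *ᵥ X) z *
        ((((⁅x0, y0⁆ : GL (Fin 2 → Fin 3) F) : Matrix (Fin 2 → Fin 3) (Fin 2 → Fin 3) F) *ᵥ Y) z) ^ 2 =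
        (l : F) * ∑ z, X z * (Y z) ^ 2 := by
    intro X Y
    have h1 := hl ((P' : Matrix (Fin n) (Fin n) F) *ᵥ (X ∘ e')) ((P' : Matrix (Fin n) (Fin n) F) *ᵥ (Y ∘ e'))
    rw [hΘc, hΘ, qsol_tw_mulVec, qsol_tw_mulVec, hc', hc'] at h1
    apply mul_left_cancel₀ hc0
    rw [h1]
    ring
  obtain ⟨ha, hb⟩ := solw_factor _ a b hab l hl'
  refine ⟨(a, b), ⟨hSdef ▸ ha, hSdef ▸ hb⟩, ?_⟩
  rw [hΘc, solw_eq_psi _ a b hab]
  rfl

end Cfsg.Agent.Lib.Helper47.UG
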