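import Cfsg.Agent.Lib.Helper47.UG.Defs
import Cfsg.Agent.Lib.Helper62.UGT.T2W
import Cfsg.Agent.Lib.Helper59.ASU9.ONB
import Cfsg.Agent.Lib.Helper59.ASU9.HUF
import Cfsg.Agent.Lib.Helper38.AschG.TPW

set_option autoImplicit false

namespace Cfsg.Agent.Lib.Helper47.UG

open Cfsg Cfsg.Geo
open Cfsg.Agent.Lib.Helper77.Asch (NormBy MinOver sc)
open Cfsg.Agent.Lib.Helper77.AschG (tw slot)
open Cfsg.Agent.Lib.Helper47.UC (InGeoV)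
open scoped MatrixGroups Matrix Kronecker

variable {n : ℕ} {F : Type*} [Field F]

-- RUNG T2S
/-- T2S. -/
theorem tensor_ss [Fintype F] (q : ℕ) (hF : Fintype.card F = q ^ 2) {s : ℕ} (hs : 3 ≤ s) (hqs : ¬ (q = 2 ∧ s = 3))
    (e : Fin n ≃ Fin s × Fin s) (P : GL (Fin n) F) (f₁ f₂ : (Fin s → F) → (Fin s → F) → F)
    (h1 : IsUnitaryFormPow q f₁) (h2 : IsUnitaryFormPow q f₂)
    (hT : IsTensorFormStructure (fun x : F => x ^ q) (hermForm n F q) f₁ f₂ e P)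
    (Γ : Subgroup (GL (Fin n) F)) (hΓ : Γ ≤ tensorProductSubgroup s s e P) : Tgt q Γ := by
  obtain ⟨C₁, hC₁⟩ := Cfsg.Agent.Lib.Helper59.ASU9.exists_onb q hF f₁ h1
  obtain ⟨C₂, hC₂⟩ := Cfsg.Agent.Lib.Helper59.ASU9.exists_onb q hF f₂ h2
  obtain ⟨P', hP', -, hTP, -⟩ := Cfsg.Agent.Lib.Helper62.UGT.exists_changeP e P C₁ C₂
  have hpow := Cfsg.Agent.Lib.Helper62.UGT.power_form_of_tensor q hF e P P' f₁ f₂ h1 h2 hT C₁ C₂ hC₁ hC₂ hP'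
  refine ⟨tensorWreathSubgroup s 2 (eWs e) P' ⊓ GU n F q, ?_, ?_⟩
  · exact Or.inr (Or.inr (Or.inr ⟨s, 2, eWs e, P', hermForm s F q, hs, le_rfl, hqs,
      (Cfsg.Agent.Lib.Helper59.ASU9.hermForm_unitaryPow q hF s).1, hpow, rfl⟩))
  · apply inf_le_inf_right
    refine hΓ.trans ?_
    rw [← hTP]
    exact Cfsg.Agent.Lib.Helper38.AschG.tensor_le_wreath e P'

end Cfsg.Agent.Lib.Helper47.UG
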