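import Cfsg.Agent.Lib.Helper47.UG.Defs
import Cfsg.Agent.Lib.Helper77.ASU8.Main8
import Cfsg.Agent.Lib.Helper59.ASU9.ONB
import Cfsg.Agent.Lib.Helper59.ASU9.T2WG
import Cfsg.Agent.Lib.Helper59.ASU9.T2WF
import Cfsg.Agent.Lib.Helper59.ASU9.SWP
import Cfsg.Agent.Lib.Helper59.ASU9.SOLV
import Cfsg.Agent.Lib.Helper38.AschG.TPW
import Cfsg.Agent.Lib.Helper47.UG.SOLW
import Cfsg.Agent.Lib.Helper47.UG.CONV
import Cfsg.Agent.Lib.Helper47.UG.FLOW

/-! Ladder UG, rung T33 (helper6). -/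

set_option autoImplicit false

namespace Cfsg.Agent.Lib.Helper47.UG

open Cfsg Cfsg.Geo
open Cfsg.Agent.Lib.Helper77.Asch (NormBy MinOver sc)
open Cfsg.Agent.Lib.Helper77.AschG (tw slot)
open Cfsg.Agent.Lib.Helper77.ASU8 (InC6U)
open Cfsg.Agent.Lib.Helper47.UC (InGeoV)
open scoped MatrixGroups Matrix Kronecker

variable {n : ℕ} {F : Type*} [Field F]

theorem t33_two [Fintype F] (hF : Fintype.card F = 2 ^ 2) : (2 : F) = 0 := by
  have h4 : ((Fintype.card F : ℕ) : F) = 0 := Nat.cast_card_eq_zero F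
  rw [hF] at h4
  have h5 : (2 : F) ^ 2 = 0 := by exact_mod_cast h4
  exact pow_eq_zero_iff (by norm_num) |>.1 h5

/-- a perfect subgroup of a solvable group is trivial. -/
theorem t33_perfect_bot {G : Type*} [Group G] (P₀ : Subgroup G) (hperf : ⁅P₀, P₀⁆ = P₀)
    (hsol : Group.IsSolvable P₀) : P₀ = ⊥ := by
  obtain ⟨k, hk⟩ := hsol.solvable
  have h1 : ∀ j, Cfsg.Agent.Lib.Helper59.ASU9.solvD P₀ j = P₀ := by
    intro j
    induction j with
    | zero => rfl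
    | succ j ih =>
      show ⁅Cfsg.Agent.Lib.Helper59.ASU9.solvD P₀ j, Cfsg.Agent.Lib.Helper59.ASU9.solvD P₀ j⁆ = P₀
      rw [ih, hperf]
  have h2 := Cfsg.Agent.Lib.Helper59.ASU9.solv_map_derived P₀ k
  rw [h1 k, hk, Subgroup.map_bot] at h2
  exact h2

theorem t33_solvable_mono {G : Type*} [Group G] {A B : Subgroup G} (h : A ≤ B) (hB : Group.IsSolvable B) :
    Group.IsSolvable A := by
  haveI := hB
  exact solvable_of_solvable_injective (Subgroup.inclusion_injective h)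

/-- KEY. -/
theorem t33_key [Fintype F] (hF : Fintype.card F = 2 ^ 2)
    (e : Fin n ≃ Fin 3 × Fin 3) (P : GL (Fin n) F) (f₁ f₂ : (Fin 3 → F) → (Fin 3 → F) → F)
    (h1 : IsUnitaryFormPow 2 f₁) (h2 : IsUnitaryFormPow 2 f₂)
    (hT : IsTensorFormStructure (fun x : F => x ^ 2) (hermForm n F 2) f₁ f₂ e P) :
    ∃ W : Subgroup (GL (Fin n) F), W ≤ similarityGroup (hermForm n F 2) ∧ Group.IsSolvable W ∧
      tensorProductSubgroup 3 3 e P ⊓ similarityGroup (hermForm n F 2) ≤ W ∧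
      ∃ s ∈ W, s ∉ tensorProductSubgroup 3 3 e P := by
  obtain ⟨C₁, hC₁⟩ := Cfsg.Agent.Lib.Helper59.ASU9.exists_onb 2 hF f₁ h1
  obtain ⟨C₂, hC₂⟩ := Cfsg.Agent.Lib.Helper59.ASU9.exists_onb 2 hF f₂ h2
  obtain ⟨P', hP', -, hTP, -⟩ := Cfsg.Agent.Lib.Helper59.ASU9.exists_changeP e P C₁ C₂
  have hpow := Cfsg.Agent.Lib.Helper59.ASU9.power_form_of_tensor 2 hF e P P' f₁ f₂ h1 h2 hT C₁ C₂ hC₁ hC₂ hP'
  refine ⟨tensorWreathSubgroup 3 2 (Cfsg.Agent.Lib.Helper59.ASU9.eW e) P' ⊓ similarityGroup (hermForm n F 2),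
    inf_le_right, solvable_wreath32 hF _ P' hpow, ?_, ?_⟩
  · rw [← hTP]
    exact inf_le_inf_right _ (Cfsg.Agent.Lib.Helper38.AschG.tensor_le_wreath e P')
  · obtain ⟨s, hs1, hs2, hs3⟩ := Cfsg.Agent.Lib.Helper59.ASU9.exists_swap 2 hF (t33_two hF) e P' hpow
    refine ⟨s, ⟨hs1, Cfsg.Agent.Lib.Helper32.AschU.GU_le_sim 2 hs2.1⟩, ?_⟩
    rw [← hTP]
    exact hs3

theorem tensor_33 [Fintype F] (hF : Fintype.card F = 2 ^ 2)
    (e : Fin n ≃ Fin 3 × Fin 3) (P : GL (Fin n) F) (f₁ f₂ : (Fin 3 → F) → (Fin 3 → F) → F)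
    (h1 : IsUnitaryFormPow 2 f₁) (h2 : IsUnitaryFormPow 2 f₂)
    (hT : IsTensorFormStructure (fun x : F => x ^ 2) (hermForm n F 2) f₁ f₂ e P)
    (Γ : Subgroup (GL (Fin n) F)) (hs : Γ ≤ similarityGroup (hermForm n F 2)) (hZ : scalars (Fin n) F ≤ Γ)
    (hirr : ActsIrreducibly (matrixSet Γ)) (hΓ : Γ ≤ tensorProductSubgroup 3 3 e P) : Tgt 2 Γ := by
  classical
  have hn : n = 9 := by
    have := Fintype.card_congr e
    simpa using this
  obtain ⟨W, hWs, hWsol, hWle, -⟩ := t33_key hF e P f₁ f₂ h1 h2 hT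
  have hΓsol : Group.IsSolvable Γ := t33_solvable_mono ((le_inf hΓ hs).trans hWle) hWsol
  let S : Set (Subgroup (GL (Fin n) F)) :=
    {Y | Γ ≤ Y ∧ Y ≤ similarityGroup (hermForm n F 2) ∧ Group.IsSolvable Y}
  obtain ⟨Y, -, hYmax⟩ := (Set.toFinite S).exists_le_maximal (show Γ ∈ S from ⟨le_rfl, hs, hΓsol⟩)
  obtain ⟨hΓY, hYs, hYsol⟩ := hYmax.prop
  have hYirr : ActsIrreducibly (matrixSet Y) :=
    Cfsg.Agent.Lib.Helper77.Asch.irr_mono (Cfsg.Agent.Lib.Helper77.Asch.matrixSet_mono hΓY) hirr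
  have hmono : Tgt 2 Y → Tgt 2 Γ := by
    rintro ⟨M, hM, hle⟩
    exact ⟨M, hM, (inf_le_inf_right _ hΓY).trans hle⟩
  rcases flowA 2 hF (by omega) Y hYs (hZ.trans hΓY) hYirr with hgeo | htgt | ⟨N, hm, -, hnab⟩
  · rcases conv 2 hF Y hgeo with htgt | ⟨s, e₂, P₂, g₁, g₂, -, hg1, hg2, hT₂, hY₂⟩
    · exact hmono htgt
    · exfalso
      have hs3 : s = 3 := by
        have h := Fintype.card_congr e₂
        rw [Fintype.card_prod, Fintype.card_fin, Fintype.card_fin, hn] at h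
        have h9 : s ≤ 9 := by
          by_contra hc
          push Not at hc
          nlinarith
        interval_cases s <;> omega
      subst hs3
      obtain ⟨W₂, hW₂s, hW₂sol, hW₂le, s₂, hs₂, hs₂'⟩ := t33_key hF e₂ P₂ g₁ g₂ hg1 hg2 hT₂
      have hYW : Y ≤ W₂ := (le_inf hY₂ hYs).trans hW₂le
      have hWY : W₂ ≤ Y := hYmax.le_of_ge ⟨hΓY.trans hYW, hW₂s, hW₂sol⟩ hYW
      exact hs₂' (hY₂ (hWY hs₂))
  · exact hmono htgt
  · exfalso
    obtain ⟨hperf, -⟩ := Cfsg.Agent.Lib.Helper77.Asch.perfect_core Y (scalars (Fin n) F) N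
      (fun z hz g => Cfsg.Agent.Lib.Helper77.Asch.scalars_central z hz g) hm hnab
    have hle : ⁅N, N⁆ ≤ Y := (Subgroup.commutator_mono hm.le hm.le).trans (by
      rw [Subgroup.commutator_le]
      intro a ha b hb
      exact Y.mul_mem (Y.mul_mem (Y.mul_mem ha hb) (Y.inv_mem ha)) (Y.inv_mem hb))
    have hbot := t33_perfect_bot ⁅N, N⁆ hperf (t33_solvable_mono hle hYsol)
    exact hnab (by rw [hbot]; exact bot_le)

end Cfsg.Agent.Lib.Helper47.UG
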